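import Cfsg.Agent.H94.S460.J.Data
import Cfsg.Agent.H94.S460.J.J1.RAll
import Cfsg.Agent.H94.S460.J.J2.RAll
import Cfsg.Agent.H94.S460.J.J3.RAll

/-!
# A simple subgroup of order 175560 of the presented O'Nan group (helper94)

The five involutions `img x` of `J/Data.lean` satisfy an involution presentation of J1;
a tower of coset enumerations (helper10's replay certificates) bounds the order of the presented
group by `266 * (11 * 60) = 175560`, the explicit Sylow subgroups give the lower bound, and the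
certificates for normal closures give simplicity (helper70's `simple_of_sylow_data`).
-/

set_option autoImplicit false

namespace Cfsg.Agent.H94.S460.J

open Cfsg.Agent.H35 Cfsg.Spor Cfsg.Agent.H10

theorem j1_bound : Finite (WG j1_rws j1_prels) ∧
    Nat.card (WG j1_rws j1_prels) ≤ 60 := by
  have hy : RHyp j1_rd (swGrp (wgGen j1_rws j1_prels) j1_rsw)
      (wgGen j1_rws j1_prels) := by
    refine ⟨wg_inv _ _, on_gof_gi, by decide, fun p hp => wrapRow_of_le _ _ p hp, ?_, ?_,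
      j1_h0, by decide⟩
    · exact circTab_valid _ (wg_inv _ _) _ (wg_full_one _ _) j1_circT j1_ccert j1_circ_ok
    · exact hcTab_valid _ (wg_inv _ _) _ j1_rsw
        (fun w hw => mem_swGrp _ _ w hw) j1_hc1T j1_hc2T _
        (fun c hc => allR_sound _ _ _ 0 j1_hc_ok c (Nat.zero_le _) (by omega) hc)
  have hb := replay_bound hy on_gens_all (wg_closure _ _) (by decide) (by decide) j1_rall
  exact card_le_of_trivial (wgGen j1_rws j1_prels) 60 hb

theorem j2_bound : Finite (WG j2_rws j2_prels) ∧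
    Nat.card (WG j2_rws j2_prels) ≤ 11 * 60 := by
  have hy : RHyp j2_rd (swGrp (wgGen j2_rws j2_prels) j2_rsw)
      (wgGen j2_rws j2_prels) := by
    refine ⟨wg_inv _ _, on_gof_gi, by decide, fun p hp => wrapRow_of_le _ _ p hp, ?_, ?_,
      j2_h0, by decide⟩
    · exact circTab_valid _ (wg_inv _ _) _ (wg_full_one _ _) j2_circT j2_ccert j2_circ_ok
    · exact hcTab_valid _ (wg_inv _ _) _ j2_rsw
        (fun w hw => mem_swGrp _ _ w hw) j2_hc1T j2_hc2T _
        (fun c hc => allR_sound _ _ _ 0 j2_hc_ok c (Nat.zero_le _) (by omega) hc)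
  have hb := replay_bound hy on_gens_all (wg_closure _ _) (by decide) (by decide) j2_rall
  obtain ⟨φ, hφ⟩ := sub_hom j1_S (wgGen j2_rws j2_prels) (wg_inv _ _) j2_rws j2_prels
    j1_rws j1_prels (wg_rws _ _) (wg_prels _ _) (by decide)
  have := j1_bound.1
  exact card_le_tower _ 11 hb φ
    (swGrp_le_range _ (wgGen j1_rws j1_prels) j1_S φ hφ j2_rsw (by decide)) _ j1_bound.2

theorem j3_bound : Finite (WG j3_rws j3_prels) ∧
    Nat.card (WG j3_rws j3_prels) ≤ 266 * (11 * 60) := by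
  have hy : RHyp j3_rd (swGrp (wgGen j3_rws j3_prels) j3_rsw)
      (wgGen j3_rws j3_prels) := by
    refine ⟨wg_inv _ _, on_gof_gi, by decide, fun p hp => wrapRow_of_le _ _ p hp, ?_, ?_,
      j3_h0, by decide⟩
    · exact circTab_valid _ (wg_inv _ _) _ (wg_full_one _ _) j3_circT j3_ccert j3_circ_ok
    · exact hcTab_valid _ (wg_inv _ _) _ j3_rsw
        (fun w hw => mem_swGrp _ _ w hw) j3_hc1T j3_hc2T _
        (fun c hc => allR_sound _ _ _ 0 j3_hc_ok c (Nat.zero_le _) (by omega) hc)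
  have hb := replay_bound hy on_gens_all (wg_closure _ _) (by decide) (by decide) j3_rall
  obtain ⟨φ, hφ⟩ := sub_hom j2_S (wgGen j3_rws j3_prels) (wg_inv _ _) j3_rws j3_prels
    j2_rws j2_prels (wg_rws _ _) (wg_prels _ _) (by decide)
  have := j2_bound.1
  exact card_le_tower _ 266 hb φ
    (swGrp_le_range _ (wgGen j2_rws j2_prels) j2_S φ hφ j3_rsw (by decide)) _ j2_bound.2

theorem hinv : ∀ x, kf img x * kf img x = 1 := kf_inv img inv_ok

theorem exists_hom : ∃ φ : WG j3_rws j3_prels →* ON,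
    ∀ x, φ (wgGen j3_rws j3_prels x) = kf img x :=
  wg_UP j3_rws j3_prels (kf img) hinv (kf_rel img j3_rws rel_ok)
    (fun r hr => absurd hr List.not_mem_nil)

theorem KS_bound : Finite (KS img) ∧ Nat.card (KS img) ≤ 175560 := by
  obtain ⟨φ, hφ⟩ := exists_hom
  have hle : KS img ≤ φ.range := by
    unfold KS
    rw [Subgroup.closure_le]
    rintro _ ⟨x, rfl⟩
    exact ⟨wgGen j3_rws j3_prels x, hφ x⟩
  have hfin := j3_bound.1
  have hr : Finite φ.range :=
    Finite.of_surjective φ.rangeRestrict φ.rangeRestrict_surjective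
  have hKfin : Finite (KS img) :=
    Finite.of_injective (Subgroup.inclusion hle) (Subgroup.inclusion_injective hle)
  refine ⟨hKfin, ?_⟩
  have h1 : Nat.card (KS img) ≤ Nat.card φ.range :=
    Nat.card_le_card_of_injective (Subgroup.inclusion hle) (Subgroup.inclusion_injective hle)
  have h2 : Nat.card φ.range ≤ Nat.card (WG j3_rws j3_prels) :=
    Nat.card_le_card_of_surjective φ.rangeRestrict φ.rangeRestrict_surjective
  have h3 := j3_bound.2
  have h4 : 266 * (11 * 60) = 175560 := by norm_num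
  omega

theorem e1_ncl : NCL img e1 := ncl_base hinv e1 baseCs base_ok

/-- the subgroup generated by the five involutions is simple of order 175560 -/
theorem main : IsSimpleGroup (KS img) ∧ Nat.card (KS img) = 175560 := by
  obtain ⟨hfin, hle⟩ := KS_bound
  obtain ⟨P2, hP2K, hP2c, hP2n⟩ :=
    syl_tab hinv e1 e1_ncl t2_certs t2_sigs 8 t2_len t2_sig t2_nd t2_mul t2_ncl
  obtain ⟨P3, hP3K, hP3c, hP3n⟩ :=
    syl_cyc 3 (by norm_num) g3 g3_pow g3_ne (ncl_step hinv g3 e1 cs3 g3_ncl e1_ncl)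
  obtain ⟨P5, hP5K, hP5c, hP5n⟩ :=
    syl_cyc 5 (by norm_num) g5 g5_pow g5_ne (ncl_step hinv g5 e1 cs5 g5_ncl e1_ncl)
  obtain ⟨P7, hP7K, hP7c, hP7n⟩ :=
    syl_cyc 7 (by norm_num) g7 g7_pow g7_ne (ncl_step hinv g7 e1 cs7 g7_ncl e1_ncl)
  obtain ⟨P11, hP11K, hP11c, hP11n⟩ :=
    syl_cyc 11 (by norm_num) g11 g11_pow g11_ne (ncl_step hinv g11 e1 cs11 g11_ncl e1_ncl)
  obtain ⟨P19, hP19K, hP19c, hP19n⟩ :=
    syl_cyc 19 (by norm_num) g19 g19_pow g19_ne (ncl_step hinv g19 e1 cs19 g19_ncl e1_ncl)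
  have d2 : 8 ∣ Nat.card (KS img) := by
    rw [← hP2c]
    exact Subgroup.card_dvd_of_le hP2K
  have d3 : 3 ∣ Nat.card (KS img) := by
    rw [← hP3c]
    exact Subgroup.card_dvd_of_le hP3K
  have d5 : 5 ∣ Nat.card (KS img) := by
    rw [← hP5c]
    exact Subgroup.card_dvd_of_le hP5K
  have d7 : 7 ∣ Nat.card (KS img) := by
    rw [← hP7c]
    exact Subgroup.card_dvd_of_le hP7K
  have d11 : 11 ∣ Nat.card (KS img) := by
    rw [← hP11c]
    exact Subgroup.card_dvd_of_le hP11K
  have d19 : 19 ∣ Nat.card (KS img) := by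
    rw [← hP19c]
    exact Subgroup.card_dvd_of_le hP19K
  have hdvd : 175560 ∣ Nat.card (KS img) := by
    have e : (175560 : ℕ) = 8 * (3 * (5 * (7 * (11 * (19))))) := by norm_num
    rw [e]
    exact Nat.Coprime.mul_dvd_of_dvd_of_dvd (by norm_num) d2
      (Nat.Coprime.mul_dvd_of_dvd_of_dvd (by norm_num) d3
      (Nat.Coprime.mul_dvd_of_dvd_of_dvd (by norm_num) d5
      (Nat.Coprime.mul_dvd_of_dvd_of_dvd (by norm_num) d7
      (Nat.Coprime.mul_dvd_of_dvd_of_dvd (by norm_num) d11 d19))))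
  have hcard : Nat.card (KS img) = 175560 := le_antisymm hle (Nat.le_of_dvd Nat.card_pos hdvd)
  refine ⟨?_, hcard⟩
  apply Cfsg.Agent.H70.ON.simple_of_sylow_data (KS img)
  · intro hbot
    rw [hbot, Subgroup.card_bot] at hcard
    omega
  · intro p hp hpd
    rw [hcard] at hpd ⊢
    have hp6 : p = 2 ∨ p = 3 ∨ p = 5 ∨ p = 7 ∨ p = 11 ∨ p = 19 := by
      have e : (175560 : ℕ) = 2 * (2 * (2 * (3 * (5 * (7 * (11 * (19))))))) := by norm_num
      rw [e] at hpd
      have pe : ∀ q : ℕ, q.Prime → p ∣ q → p = q :=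
        fun q hq h => (Nat.prime_dvd_prime_iff_eq hp hq).mp h
      rcases (Nat.Prime.dvd_mul hp).mp hpd with h | h
      · exact Or.inl (pe 2 (by norm_num) h)
      rcases (Nat.Prime.dvd_mul hp).mp h with h | h
      · exact Or.inl (pe 2 (by norm_num) h)
      rcases (Nat.Prime.dvd_mul hp).mp h with h | h
      · exact Or.inl (pe 2 (by norm_num) h)
      rcases (Nat.Prime.dvd_mul hp).mp h with h | h
      · exact Or.inr (Or.inl (pe 3 (by norm_num) h))
      rcases (Nat.Prime.dvd_mul hp).mp h with h | h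
      · exact Or.inr (Or.inr (Or.inl (pe 5 (by norm_num) h)))
      rcases (Nat.Prime.dvd_mul hp).mp h with h | h
      · exact Or.inr (Or.inr (Or.inr (Or.inl (pe 7 (by norm_num) h))))
      rcases (Nat.Prime.dvd_mul hp).mp h with h | h
      · exact Or.inr (Or.inr (Or.inr (Or.inr (Or.inl (pe 11 (by norm_num) h)))))
      exact Or.inr (Or.inr (Or.inr (Or.inr (Or.inr (pe 19 (by norm_num) h)))))
    rcases hp6 with rfl | rfl | rfl | rfl | rfl | rfl
    · exact ⟨P2, hP2K, ⟨3, hP2c.trans (by norm_num), by norm_num⟩, hP2n⟩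
    · exact ⟨P3, hP3K, ⟨1, hP3c.trans (by norm_num), by norm_num⟩, hP3n⟩
    · exact ⟨P5, hP5K, ⟨1, hP5c.trans (by norm_num), by norm_num⟩, hP5n⟩
    · exact ⟨P7, hP7K, ⟨1, hP7c.trans (by norm_num), by norm_num⟩, hP7n⟩
    · exact ⟨P11, hP11K, ⟨1, hP11c.trans (by norm_num), by norm_num⟩, hP11n⟩
    · exact ⟨P19, hP19K, ⟨1, hP19c.trans (by norm_num), by norm_num⟩, hP19n⟩

end Cfsg.Agent.H94.S460.J
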