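import Cfsg.Agent.H10.Tower
import Cfsg.Agent.H35.NI.ONGlue

/-!
# An involution presentation of J1 and its sub-presentations (helper94; generated)
-/

set_option autoImplicit false

namespace Cfsg.Agent.H94.S460.J

open Cfsg.Agent.H35 Cfsg.Spor

def j1_rws : List (List OnL × List OnL) := [
  ([.a, .b, .a], [.b, .a, .b]),
  ([.b, .c, .b, .c, .b], [.c, .b, .c, .b, .c]),
  ([.a, .c], [.c, .a]),
  ([.a, .b, .c, .a, .b, .c, .a, .b, .c, .a, .b, .c, .a, .b, .c], []),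
  ([.g], []),
  ([.d], []),
  ([.e], []),
  ([.f], []),
  ([.v], [])]
def j1_prels : List (List OnL × ℕ × ℕ) := []
def j1_S (x : OnL) : Bool := decide (x ∈ ([.a, .b, .c] : List OnL))

def j2_rws : List (List OnL × List OnL) := [
  ([.a, .b, .a], [.b, .a, .b]),
  ([.b, .c, .b, .c, .b], [.c, .b, .c, .b, .c]),
  ([.c, .d, .c], [.d, .c, .d]),
  ([.a, .c], [.c, .a]),
  ([.a, .d], [.d, .a]),
  ([.b, .d], [.d, .b]),
  ([.a, .b, .c, .a, .b, .c, .a, .b, .c, .a, .b, .c, .a, .b, .c], []),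
  ([.g], []),
  ([.e], []),
  ([.f], []),
  ([.v], [])]
def j2_prels : List (List OnL × ℕ × ℕ) := []
def j2_S (x : OnL) : Bool := decide (x ∈ ([.a, .b, .c, .d] : List OnL))

def j3_rws : List (List OnL × List OnL) := [
  ([.a, .b, .a], [.b, .a, .b]),
  ([.b, .c, .b, .c, .b], [.c, .b, .c, .b, .c]),
  ([.c, .d, .c], [.d, .c, .d]),
  ([.d, .e, .d, .e, .d], [.e, .d, .e, .d, .e]),
  ([.a, .c], [.c, .a]),
  ([.a, .d], [.d, .a]),
  ([.a, .e], [.e, .a]),
  ([.b, .d], [.d, .b]),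
  ([.b, .e], [.e, .b]),
  ([.c, .e], [.e, .c]),
  ([.c, .d, .e, .c, .d, .e, .c, .d, .e, .c, .d, .e, .c, .d, .e], [.a]),
  ([.a, .b, .c, .a, .b, .c, .a, .b, .c, .a, .b, .c, .a, .b, .c], []),
  ([.g], []),
  ([.f], []),
  ([.v], [])]
def j3_prels : List (List OnL × ℕ × ℕ) := []
def j3_S (x : OnL) : Bool := decide (x ∈ ([.a, .b, .c, .d, .e] : List OnL))

end Cfsg.Agent.H94.S460.J
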